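import Cfsg.Agent.H41.TitsTC.Kw.RTab

set_option autoImplicit false
set_option linter.all false
set_option Elab.async false

namespace Cfsg.Agent.H41.TitsP

open Cfsg.Agent.H35

theorem tkw_rchk_20 : allR tkw_rf 27850 8 (20 * 2 ^ 8) = true := by decide +kernel
theorem tkw_rchk_21 : allR tkw_rf 27850 8 (21 * 2 ^ 8) = true := by decide +kernel
theorem tkw_rchk_22 : allR tkw_rf 27850 8 (22 * 2 ^ 8) = true := by decide +kernel
theorem tkw_rchk_23 : allR tkw_rf 27850 8 (23 * 2 ^ 8) = true := by decide +kernel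
theorem tkw_rchk_24 : allR tkw_rf 27850 8 (24 * 2 ^ 8) = true := by decide +kernel
theorem tkw_rchk_25 : allR tkw_rf 27850 8 (25 * 2 ^ 8) = true := by decide +kernel
theorem tkw_rchk_26 : allR tkw_rf 27850 8 (26 * 2 ^ 8) = true := by decide +kernel
theorem tkw_rchk_27 : allR tkw_rf 27850 8 (27 * 2 ^ 8) = true := by decide +kernel
theorem tkw_rchk_28 : allR tkw_rf 27850 8 (28 * 2 ^ 8) = true := by decide +kernel
theorem tkw_rchk_29 : allR tkw_rf 27850 8 (29 * 2 ^ 8) = true := by decide +kernel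
theorem tkw_rchk_30 : allR tkw_rf 27850 8 (30 * 2 ^ 8) = true := by decide +kernel
theorem tkw_rchk_31 : allR tkw_rf 27850 8 (31 * 2 ^ 8) = true := by decide +kernel
theorem tkw_rchk_32 : allR tkw_rf 27850 8 (32 * 2 ^ 8) = true := by decide +kernel
theorem tkw_rchk_33 : allR tkw_rf 27850 8 (33 * 2 ^ 8) = true := by decide +kernel
theorem tkw_rchk_34 : allR tkw_rf 27850 8 (34 * 2 ^ 8) = true := by decide +kernel
theorem tkw_rchk_35 : allR tkw_rf 27850 8 (35 * 2 ^ 8) = true := by decide +kernel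
theorem tkw_rchk_36 : allR tkw_rf 27850 8 (36 * 2 ^ 8) = true := by decide +kernel
theorem tkw_rchk_37 : allR tkw_rf 27850 8 (37 * 2 ^ 8) = true := by decide +kernel
theorem tkw_rchk_38 : allR tkw_rf 27850 8 (38 * 2 ^ 8) = true := by decide +kernel
theorem tkw_rchk_39 : allR tkw_rf 27850 8 (39 * 2 ^ 8) = true := by decide +kernel

end Cfsg.Agent.H41.TitsP
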